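import Mathlib
import Cfsg.Agent.TcData.Fi22.I14080.Tab

set_option autoImplicit false
set_option maxRecDepth 100000
set_option linter.all false

namespace Cfsg.Agent.TcData.Fi22.I14080

open Cfsg.Spor Cfsg.Agent.Lib.TcFacts Cfsg.Agent.Lib.TcBits Cfsg.Agent.Lib.TcPres Cfsg.Spor.Fi22 Cfsg.Agent.TcData.Fi22

theorem b42 : Block F al 10752 11008 256 :=
  block_of_check (k := 8) rfl (by decide +kernel)

theorem b43 : Block F al 11008 11264 256 :=
  block_of_check (k := 8) rfl (by decide +kernel)

theorem b44 : Block F al 11264 11520 256 :=
  block_of_check (k := 8) rfl (by decide +kernel)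

theorem b45 : Block F al 11520 11776 256 :=
  block_of_check (k := 8) rfl (by decide +kernel)

theorem b46 : Block F al 11776 12032 256 :=
  block_of_check (k := 8) rfl (by decide +kernel)

theorem b47 : Block F al 12032 12288 256 :=
  block_of_check (k := 8) rfl (by decide +kernel)

theorem b48 : Block F al 12288 12544 256 :=
  block_of_check (k := 8) rfl (by decide +kernel)

theorem b49 : Block F al 12544 12800 256 :=
  block_of_check (k := 8) rfl (by decide +kernel)

theorem b50 : Block F al 12800 13056 256 :=
  block_of_check (k := 8) rfl (by decide +kernel)

theorem b51 : Block F al 13056 13312 256 :=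
  block_of_check (k := 8) rfl (by decide +kernel)

theorem b52 : Block F al 13312 13568 256 :=
  block_of_check (k := 8) rfl (by decide +kernel)

theorem b53 : Block F al 13568 13824 256 :=
  block_of_check (k := 8) rfl (by decide +kernel)

theorem b54 : Block F al 13824 14080 256 :=
  block_of_check (k := 8) rfl (by decide +kernel)

theorem b55 : Block F al 14080 14336 256 :=
  block_of_check (k := 8) rfl (by decide +kernel)

theorem b56 : Block F al 14336 14592 256 :=
  block_of_check (k := 8) rfl (by decide +kernel)

theorem b57 : Block F al 14592 14848 256 :=
  block_of_check (k := 8) rfl (by decide +kernel)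

theorem b58 : Block F al 14848 15104 256 :=
  block_of_check (k := 8) rfl (by decide +kernel)

theorem b59 : Block F al 15104 15360 256 :=
  block_of_check (k := 8) rfl (by decide +kernel)

theorem b60 : Block F al 15360 15616 256 :=
  block_of_check (k := 8) rfl (by decide +kernel)

theorem b61 : Block F al 15616 15872 256 :=
  block_of_check (k := 8) rfl (by decide +kernel)

theorem b62 : Block F al 15872 16128 256 :=
  block_of_check (k := 8) rfl (by decide +kernel)

theorem b63 : Block F al 16128 16384 256 :=
  block_of_check (k := 8) rfl (by decide +kernel)

theorem b64 : Block F al 16384 16640 256 :=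
  block_of_check (k := 8) rfl (by decide +kernel)

theorem b65 : Block F al 16640 16896 256 :=
  block_of_check (k := 8) rfl (by decide +kernel)

theorem b66 : Block F al 16896 17152 256 :=
  block_of_check (k := 8) rfl (by decide +kernel)

theorem b67 : Block F al 17152 17408 256 :=
  block_of_check (k := 8) rfl (by decide +kernel)

theorem b68 : Block F al 17408 17664 256 :=
  block_of_check (k := 8) rfl (by decide +kernel)

theorem b69 : Block F al 17664 17920 256 :=
  block_of_check (k := 8) rfl (by decide +kernel)

end Cfsg.Agent.TcData.Fi22.I14080
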