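import Mathlib
import Cfsg.Agent.TcData.Fi22.I14080.Tab

set_option autoImplicit false
set_option maxRecDepth 100000
set_option linter.all false

namespace Cfsg.Agent.TcData.Fi22.I14080

open Cfsg.Spor Cfsg.Agent.Lib.TcFacts Cfsg.Agent.Lib.TcBits Cfsg.Agent.Lib.TcPres Cfsg.Spor.Fi22 Cfsg.Agent.TcData.Fi22

theorem b70 : Block F al 17920 18176 256 :=
  block_of_check (k := 8) rfl (by decide +kernel)

theorem b71 : Block F al 18176 18432 256 :=
  block_of_check (k := 8) rfl (by decide +kernel)

theorem b72 : Block F al 18432 18688 256 :=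
  block_of_check (k := 8) rfl (by decide +kernel)

theorem b73 : Block F al 18688 18944 256 :=
  block_of_check (k := 8) rfl (by decide +kernel)

theorem b74 : Block F al 18944 19200 221 :=
  block_of_check (k := 8) rfl (by decide +kernel)

end Cfsg.Agent.TcData.Fi22.I14080
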